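/-
Overgroups of the Singer normaliser in `SL₁₁(q)`: vocabulary.
-/
import Mathlib
import Cfsg.Agent.Cl.D5Defs
import Cfsg.Agent.Ch.Orthogonality

set_option autoImplicit false

namespace Cfsg.Agent.S11

open Matrix Cfsg.Geo
open scoped MatrixGroups ComplexConjugate

/-! ### A self-centralising abelian subgroup with automiser of order eleven -/

/-- `S` is abelian of order `m`, the centraliser of each of its non-trivial elements, and has
index eleven in its normaliser. -/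
structure TID {G : Type*} [Group G] (S : Subgroup G) (m : ℕ) : Prop where
  comm : ∀ a ∈ S, ∀ b ∈ S, a * b = b * a
  card : Nat.card S = m
  cent : ∀ s ∈ S, s ≠ 1 → ∀ g : G, g * s = s * g → g ∈ S
  idx : Nat.card (Subgroup.normalizer (S : Set G)) = 11 * m

/-- Multiplicities of the linear characters of `S` in the restrictions of the irreducible
characters of `G`: `b χ` for the trivial one, `a χ i` for those in the `i`-th orbit. -/
structure CD {G : Type*} [Group G] [Fintype G] (S : Subgroup G) [Fintype S] (t : ℕ)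
    (a : IrrCharacter G → Fin t → ℕ) (b : IrrCharacter G → ℕ) : Prop where
  card : Nat.card S = 11 * t + 1
  two : ∀ i j, i ≠ j → ∑ χ, ((a χ i : ℤ) - a χ j) ^ 2 = 2
  eight : ∀ i, ∑ χ, ((b χ : ℤ) - a χ i) ^ 2 = 12
  deg : ∀ χ : IrrCharacter G, χ.1 1 = ((b χ + 11 * ∑ i, a χ i : ℕ) : ℂ)
  orth : ∀ i j, ∑ χ, ((b χ + 11 * ∑ k, a χ k : ℕ) : ℤ) * ((a χ i : ℤ) - a χ j) = 0
  bdef : ∀ χ : IrrCharacter G, ∑ s : S, χ.1 s = (Nat.card S : ℂ) * b χ
  sq : ∀ χ : IrrCharacter G,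
    ∑ s : S, χ.1 s * conj (χ.1 s) = (Nat.card S : ℂ) * ((b χ ^ 2 + 11 * ∑ i, a χ i ^ 2 : ℕ) : ℂ)
  ker : ∀ χ : IrrCharacter G, (∀ i, a χ i = 0) → ∀ s ∈ S, χ.1 s = χ.1 1
  reg : ∀ (n : IrrCharacter G → ℕ) (d : ℕ), (∀ s ∈ S, s ≠ 1 → ∑ χ, (n χ : ℂ) * χ.1 s = 0) →
    ∑ χ, (n χ : ℂ) * χ.1 1 = (d : ℂ) * Nat.card S →
    (∀ i, ∑ χ, n χ * a χ i = d) ∧ ∑ χ, n χ * b χ = d

/-- `G` is doubly transitive on `Ω`. -/
def Two (G Ω : Type*) [Group G] [MulAction G Ω] : Prop :=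
  ∀ x y x' y' : Ω, x ≠ y → x' ≠ y' → ∃ g : G, g • x = x' ∧ g • y = y'

/-- The number of points of `PG(10, q)`. -/
def th (q : ℕ) : ℕ := q ^ 10 + q ^ 9 + q ^ 8 + q ^ 7 + q ^ 6 + q ^ 5 + q ^ 4 + q ^ 3 + q ^ 2 + q + 1

/-! ### Linear groups in dimension eleven -/

variable {F : Type*} [Field F]

local notation "M11" => Matrix (Fin 11) (Fin 11) F
local notation "SL11" => specialLinear (Fin 11) F
local notation "Z11" => scalars (Fin 11) F

/-- `S` is the group of elements of determinant one of the field `K`. -/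
structure Sing [Fintype F] (K : Subalgebra F M11) (S : Subgroup (GL (Fin 11) F)) : Prop where
  fld : IsFieldSubalgebra 11 K
  mem : ∀ g, g ∈ S ↔ (g : M11) ∈ K ∧ g ∈ SL11
  card : Nat.card S = th (Fintype.card F)
  cardN : Nat.card ↥(subalgebraNormalizer K ⊓ SL11) = 11 * th (Fintype.card F)
  cardZ : Nat.card ↥(Z11 ⊓ SL11) = Nat.gcd 11 (Fintype.card F - 1)
  free : ∀ s ∈ K, ∀ (v : Fin 11 → F) (c : F), v ≠ 0 → s *ᵥ v = c • v → s = c • (1 : M11)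
  cent : ∀ s ∈ S, s ∉ Z11 → ∀ g ∈ SL11, g * s * g⁻¹ * s⁻¹ ∈ Z11 → g ∈ S
  norm : ∀ s : GL (Fin 11) F, (s : M11) ∈ K → s ∉ Z11 → ∀ g : GL (Fin 11) F,
    ((g * s * g⁻¹ : GL (Fin 11) F) : M11) ∈ K → g ∈ subalgebraNormalizer K
  idx : Nat.gcd 11 (Fintype.card F - 1) * Nat.card ↥(S ⊔ Z11) = Fintype.card F ^ 11 - 1

/-- Two independent vectors. -/
def Ind2 (a b : Fin 11 → F) : Prop := ∀ s t : F, s • a + t • b = 0 → s = 0 ∧ t = 0

/-- The span of two vectors. -/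
abbrev sp (a b : Fin 11 → F) : Submodule F (Fin 11 → F) := Submodule.span F {a, b}

/-- `G` is doubly transitive on the points. -/
def TwoT (G : Subgroup (GL (Fin 11) F)) : Prop :=
  ∀ a b a' b' : Fin 11 → F, Ind2 a b → Ind2 a' b' →
    ∃ g ∈ G, ∃ s t : F, (g : M11) *ᵥ a = s • a' ∧ (g : M11) *ᵥ b = t • b'

/-- Transitivity on functionals, on flags and on antiflags. -/
structure Flag (G : Subgroup (GL (Fin 11) F)) : Prop where
  dual : ∀ η ζ : Fin 11 → F, η ≠ 0 → ζ ≠ 0 → ∃ g ∈ G, η ᵥ* (g : M11) = ζ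
  on : ∀ η x y : Fin 11 → F, η ≠ 0 → x ≠ 0 → y ≠ 0 → η ⬝ᵥ x = 0 → η ⬝ᵥ y = 0 →
    ∃ g ∈ G, η ᵥ* (g : M11) = η ∧ ∃ s : F, (g : M11) *ᵥ x = s • y
  off : ∀ η x y : Fin 11 → F, η ⬝ᵥ x = 1 → η ⬝ᵥ y = 1 →
    ∃ g ∈ G, η ᵥ* (g : M11) = η ∧ (g : M11) *ᵥ x = y

/-- The stabiliser of the point `x` and the vector `y` is transitive on the hyperplanes
through `x` and not through `y`. -/
def Tri (G : Subgroup (GL (Fin 11) F)) : Prop :=
  ∀ x y η ζ : Fin 11 → F, x ≠ 0 → η ⬝ᵥ x = 0 → ζ ⬝ᵥ x = 0 → η ⬝ᵥ y = 1 → ζ ⬝ᵥ y = 1 →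
    ∃ g ∈ G, (∃ s : F, (g : M11) *ᵥ x = s • x) ∧ (g : M11) *ᵥ y = y ∧ η ᵥ* (g : M11) = ζ

/-- `G` induces all elations on every plane. -/
def Tr (G : Subgroup (GL (Fin 11) F)) : Prop :=
  ∀ a b x : Fin 11 → F, Ind2 a b → x ∉ sp a b → ∀ u ∈ sp a b,
    ∃ g ∈ G, (g : M11) *ᵥ a = a ∧ (g : M11) *ᵥ b = b ∧ (g : M11) *ᵥ x = x + u

/-- The standing hypotheses on a doubly transitive group. -/
structure CK (G : Subgroup (GL (Fin 11) F)) : Prop where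
  sc : Z11 ≤ G
  two : TwoT G
  flag : Flag G
  tr : Tr G

/-- The stabiliser of two vectors. -/
def fix2 (G : Subgroup (GL (Fin 11) F)) (a b : Fin 11 → F) : Subgroup (GL (Fin 11) F) where
  carrier := {g | g ∈ G ∧ (g : M11) *ᵥ a = a ∧ (g : M11) *ᵥ b = b}
  one_mem' := ⟨G.one_mem, by simp, by simp⟩
  mul_mem' := fun {g h} ⟨g0, g1, g2⟩ ⟨h0, h1, h2⟩ => ⟨G.mul_mem g0 h0,
    by rw [Units.val_mul, ← mulVec_mulVec, h1, g1], by rw [Units.val_mul, ← mulVec_mulVec, h2, g2]⟩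
  inv_mem' := fun {g} ⟨g0, g1, g2⟩ => ⟨G.inv_mem g0,
    by conv_lhs => rw [← g1, mulVec_mulVec, Units.inv_mul, one_mulVec],
    by conv_lhs => rw [← g2, mulVec_mulVec, Units.inv_mul, one_mulVec]⟩

/-- The vectors fixed by `X`. -/
def Fx (X : Subgroup (GL (Fin 11) F)) : Submodule F (Fin 11 → F) where
  carrier := {v | ∀ g ∈ X, (g : M11) *ᵥ v = v}
  add_mem' h1 h2 g hg := by rw [mulVec_add, h1 g hg, h2 g hg]
  zero_mem' g _ := mulVec_zero _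
  smul_mem' c v h g hg := by rw [mulVec_smul, h g hg]

/-- Special functionals. -/
def Sp (G : Subgroup (GL (Fin 11) F)) (a b η : Fin 11 → F) : Prop :=
  η ≠ 0 ∧ η ⬝ᵥ a = 0 ∧ η ⬝ᵥ b = 0 ∧
    ∀ x y, η ⬝ᵥ x = 1 → η ⬝ᵥ y = 1 → ∃ g ∈ fix2 G a b, (g : M11) *ᵥ x = y

/-- The common kernel of the special functionals. -/
def W (G : Subgroup (GL (Fin 11) F)) (a b : Fin 11 → F) : Submodule F (Fin 11 → F) where
  carrier := {x | ∀ η, Sp G a b η → η ⬝ᵥ x = 0}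
  add_mem' h1 h2 η h := by rw [dotProduct_add, h1 η h, h2 η h, add_zero]
  zero_mem' η _ := dotProduct_zero η
  smul_mem' c v h η hη := by rw [dotProduct_smul, h η hη, smul_zero]

/-- `X` is a Sylow `l`-subgroup of `H`. -/
structure Syl (l : ℕ) (X H : Subgroup (GL (Fin 11) F)) : Prop where
  le : X ≤ H
  pg : IsPGroup l X
  nd : ¬ l ∣ X.relIndex H

end Cfsg.Agent.S11
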