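/-
Exceptional characters: the combinatorial step.
-/
import Mathlib
import Cfsg.Agent.S11.Defs

set_option autoImplicit false

namespace Cfsg.Agent.S11

open Matrix Cfsg.Geo Cfsg.Agent.Cl.D5 Module
open scoped MatrixGroups ComplexConjugate commutatorElement

/-- An integral vector of norm two orthogonal to a positive vector is a difference of two basis
vectors. -/
theorem chc_norm_two {I : Type*} [Fintype I] [DecidableEq I] (v D : I → ℤ) (hD : ∀ χ, 0 < D χ)
    (h2 : ∑ χ, v χ ^ 2 = 2) (h0 : ∑ χ, D χ * v χ = 0) :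
    ∃ α β : I, α ≠ β ∧ ∀ φ, v φ = (if φ = α then 1 else 0) - (if φ = β then 1 else 0) := by
  have hne : ¬ ∀ χ, v χ = 0 := by
    intro h
    simp [h] at h2
  have hp : ∃ α, 0 < v α := by
    by_contra h
    push Not at h
    apply hne
    intro χ
    have h1 : ∀ φ ∈ (Finset.univ : Finset I), D φ * v φ ≤ 0 := fun φ _ =>
      mul_nonpos_of_nonneg_of_nonpos (hD φ).le (h φ)
    have := (Finset.sum_eq_zero_iff_of_nonpos h1).1 h0 χ (Finset.mem_univ _)
    rcases mul_eq_zero.1 this with h3 | h3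
    · exact absurd h3 (hD χ).ne'
    · exact h3
  have hm : ∃ β, v β < 0 := by
    by_contra h
    push Not at h
    apply hne
    intro χ
    have h1 : ∀ φ ∈ (Finset.univ : Finset I), 0 ≤ D φ * v φ := fun φ _ =>
      mul_nonneg (hD φ).le (h φ)
    have := (Finset.sum_eq_zero_iff_of_nonneg h1).1 h0 χ (Finset.mem_univ _)
    rcases mul_eq_zero.1 this with h3 | h3
    · exact absurd h3 (hD χ).ne'
    · exact h3
  obtain ⟨α, hα⟩ := hp
  obtain ⟨β, hβ⟩ := hm
  have hab : α ≠ β := by
    rintro rfl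
    omega
  have hle : ∀ s : Finset I, ∑ χ ∈ s, v χ ^ 2 ≤ 2 := fun s => by
    rw [← h2]
    exact Finset.sum_le_sum_of_subset_of_nonneg (Finset.subset_univ _) fun _ _ _ => sq_nonneg _
  have h3 := hle {α, β}
  rw [Finset.sum_pair hab] at h3
  have ha1 : v α = 1 := by nlinarith
  have hb1 : v β = -1 := by nlinarith
  refine ⟨α, β, hab, fun φ => ?_⟩
  by_cases h4 : φ = α
  · subst h4
    simp [hab, ha1]
  by_cases h5 : φ = β
  · subst h5
    simp [h4, hb1]
  have h6 := hle {φ, α, β}
  rw [Finset.sum_insert (by simp [h4, h5]), Finset.sum_pair hab, ha1, hb1] at h6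
  have h7 : v φ ^ 2 = 0 := by nlinarith [sq_nonneg (v φ)]
  simp only [h4, h5, if_false, sub_zero]
  exact pow_eq_zero_iff (two_ne_zero) |>.1 h7

/-- Vectors whose differences are differences of basis vectors are a fixed vector plus or minus
distinct basis vectors. -/
theorem chc_shape {I J : Type*} [DecidableEq I] [DecidableEq J] (a : I → J → ℤ) (i0 i1 : J)
    (h01 : i1 ≠ i0) (h : ∀ i j, i ≠ j → ∃ α β : I, α ≠ β ∧
      ∀ φ, a φ i - a φ j = (if φ = α then 1 else 0) - (if φ = β then 1 else 0)) :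
    ∃ (ε : ℤ) (c : I → ℤ) (x : J → I), Function.Injective x ∧ (ε = 1 ∨ ε = -1) ∧
      ∀ φ k, a φ k = c φ + if φ = x k then ε else 0 := by
  have h' : ∀ k, ∃ α β : I, k ≠ i0 → (α ≠ β ∧
      ∀ φ, a φ i0 - a φ k = (if φ = α then 1 else 0) - (if φ = β then 1 else 0)) := by
    intro k
    by_cases hk : k = i0
    · obtain ⟨α, β, -⟩ := h i0 i1 h01.symm
      exact ⟨α, β, fun h1 => absurd hk h1⟩
    · obtain ⟨α, β, h1⟩ := h i0 k (Ne.symm hk)
      exact ⟨α, β, fun _ => h1⟩
  choose α β hab using h'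
  have key : ∀ k l, k ≠ i0 → l ≠ i0 → k ≠ l →
      (α k = α l ∨ β k = β l) ∧ ¬ (α k = α l ∧ β k = β l) := by
    intro k l hk hl hkl
    obtain ⟨γ, δ, hgd, hv⟩ := h k l hkl
    obtain ⟨hk1, hk2⟩ := hab k hk
    obtain ⟨hl1, hl2⟩ := hab l hl
    have hE : ∀ φ, ((if φ = α l then 1 else 0) - (if φ = β l then 1 else 0) : ℤ) -
        ((if φ = α k then 1 else 0) - (if φ = β k then 1 else 0)) =
        (if φ = γ then 1 else 0) - (if φ = δ then 1 else 0) := fun φ => by
      rw [← hv, ← hk2, ← hl2]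
      ring
    constructor
    · by_contra hc
      push Not at hc
      obtain ⟨c1, c2⟩ := hc
      have e1 := hE (α l)
      have e2 := hE (β k)
      rw [if_pos rfl, if_neg hl1, if_neg c1.symm] at e1
      rw [if_pos rfl, if_neg c2, if_neg hk1.symm] at e2
      have e3 : α l = γ := by
        by_contra e
        rw [if_neg e] at e1
        split_ifs at e1 <;> omega
      have e4 : β k = γ := by
        by_contra e
        rw [if_neg e] at e2
        split_ifs at e2 <;> omega
      rw [if_pos (e3.trans e4.symm)] at e1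
      split_ifs at e1 <;> omega
    · rintro ⟨c1, c2⟩
      have e1 := hE γ
      rw [c1, c2, if_pos rfl, if_neg hgd] at e1
      omega
  by_cases hA : ∃ k l, k ≠ i0 ∧ l ≠ i0 ∧ k ≠ l ∧ α k = α l
  · obtain ⟨k, l, hk, hl, hkl, hα⟩ := hA
    have all : ∀ m, m ≠ i0 → α m = α k := by
      intro m hm
      by_contra hc
      have hmk : m ≠ k := by
        rintro rfl
        exact hc rfl
      have hml : m ≠ l := by
        rintro rfl
        exact hc hα.symm
      have b1 := ((key m k hm hk hmk).1.resolve_left hc)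
      have b2 := ((key m l hm hl hml).1.resolve_left (by rw [← hα]; exact hc))
      exact (key k l hk hl hkl).2 ⟨hα, b1.symm.trans b2⟩
    refine ⟨1, fun φ => a φ i0 - if φ = α k then 1 else 0,
      fun m => if m = i0 then α k else β m, ?_, Or.inl rfl, ?_⟩
    · intro m m' hmm
      by_contra hne
      dsimp only at hmm
      by_cases hm : m = i0
      · have hm' : m' ≠ i0 := fun e => hne (hm.trans e.symm)
        rw [if_pos hm, if_neg hm', ← all m' hm'] at hmm
        exact (hab m' hm').1 hmm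
      by_cases hm' : m' = i0
      · rw [if_neg hm, if_pos hm', ← all m hm] at hmm
        exact (hab m hm).1 hmm.symm
      rw [if_neg hm, if_neg hm'] at hmm
      exact (key m m' hm hm' hne).2 ⟨(all m hm).trans (all m' hm').symm, hmm⟩
    · intro φ m
      by_cases hm : m = i0
      · subst hm
        simp
      · have := (hab m hm).2 φ
        rw [all m hm] at this
        simp only [if_neg hm]
        omega
  · push Not at hA
    have all : ∀ m, m ≠ i0 → β m = β i1 := by
      intro m hm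
      by_cases hm1 : m = i1
      · rw [hm1]
      · exact (key m i1 hm h01 hm1).1.resolve_left (hA m i1 hm h01 hm1)
    refine ⟨-1, fun φ => a φ i0 + if φ = β i1 then 1 else 0,
      fun m => if m = i0 then β i1 else α m, ?_, Or.inr rfl, ?_⟩
    · intro m m' hmm
      by_contra hne
      dsimp only at hmm
      by_cases hm : m = i0
      · have hm' : m' ≠ i0 := fun e => hne (hm.trans e.symm)
        rw [if_pos hm, if_neg hm', ← all m' hm'] at hmm
        exact (hab m' hm').1 hmm.symm
      by_cases hm' : m' = i0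
      · rw [if_neg hm, if_pos hm', ← all m hm] at hmm
        exact (hab m hm).1 hmm
      rw [if_neg hm, if_neg hm'] at hmm
      exact hA m m' hm hm' hne hmm
    · intro φ m
      by_cases hm : m = i0
      · subst hm
        simp only [if_true]
        split_ifs <;> ring
      · have := (hab m hm).2 φ
        rw [all m hm] at this
        simp only [if_neg hm]
        split_ifs at this ⊢ <;> omega

theorem exc_comb {I : Type*} [Fintype I] {t d : ℕ} (ht : 30 ≤ t) (hd : d ≤ 11) (a : I → Fin t → ℕ)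
    (b n : I → ℕ) (two : ∀ i j, i ≠ j → ∑ χ, ((a χ i : ℤ) - a χ j) ^ 2 = 2)
    (eight : ∀ i, ∑ χ, ((b χ : ℤ) - a χ i) ^ 2 = 12)
    (pos : ∀ χ, 0 < b χ + 11 * ∑ k, a χ k)
    (orth : ∀ i j, ∑ χ, ((b χ + 11 * ∑ k, a χ k : ℕ) : ℤ) * ((a χ i : ℤ) - a χ j) = 0)
    (ha : ∀ i, ∑ χ, n χ * a χ i = d) (hb : ∑ χ, n χ * b χ = d) :
    (∀ χ, n χ ≠ 0 → ∀ i j, a χ i = a χ j) ∨
      ((∃ χ i j, a χ i ≠ a χ j) ∧ ∀ χ i j, a χ i ≠ a χ j → b χ = 0 ∧ ∑ k, a χ k = 1) := by
  classical
  by_cases hc : ∀ χ, n χ ≠ 0 → ∀ i j, a χ i = a χ j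
  · exact Or.inl hc
  right
  push Not at hc
  obtain ⟨χ0, hn0, i', j', hij'⟩ := hc
  refine ⟨⟨χ0, i', j', hij'⟩, ?_⟩
  let i0 : Fin t := ⟨0, by omega⟩
  let i1 : Fin t := ⟨1, by omega⟩
  have h01 : i1 ≠ i0 := by simp [i0, i1, Fin.ext_iff]
  obtain ⟨ε, c, x, hx, hε, hac⟩ := chc_shape (fun φ k => (a φ k : ℤ)) i0 i1 h01 fun i j hij =>
    chc_norm_two (fun χ => (a χ i : ℤ) - a χ j) (fun χ => ((b χ + 11 * ∑ k, a χ k : ℕ) : ℤ))
      (fun χ => by exact_mod_cast pos χ) (two i j hij) (orth i j)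
  have hε0 : ε ≠ 0 := by omega
  -- weights orthogonal to the differences are constant on the exceptional set
  have const : ∀ w : I → ℤ, (∀ i j, ∑ χ, w χ * ((a χ i : ℤ) - a χ j) = 0) →
      ∀ i j, w (x i) = w (x j) := by
    intro w hw i j
    have h1 := hw i j
    have h2 : ∀ χ, w χ * ((a χ i : ℤ) - a χ j) =
        (if χ = x i then w χ * ε else 0) - (if χ = x j then w χ * ε else 0) := fun χ => by
      rw [hac χ i, hac χ j]
      split_ifs <;> ring
    simp only [h2, Finset.sum_sub_distrib, Finset.sum_ite_eq', Finset.mem_univ, if_true] at h1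
    have h3 : (w (x i) - w (x j)) * ε = 0 := by linarith
    rcases mul_eq_zero.1 h3 with h4 | h4
    · linarith
    · exact absurd h4 hε0
  have hdeg : ∀ i j, b (x i) + 11 * ∑ k, a (x i) k = b (x j) + 11 * ∑ k, a (x j) k := fun i j => by
    exact_mod_cast const _ orth i j
  have hnn : ∀ i j, n (x i) = n (x j) := fun i j => by
    have := const (fun χ => (n χ : ℤ)) (fun i j => by
      have e1 : ∑ χ, (n χ : ℤ) * (a χ i : ℤ) = d := by exact_mod_cast ha i
      have e2 : ∑ χ, (n χ : ℤ) * (a χ j : ℤ) = d := by exact_mod_cast ha j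
      simp only [mul_sub, Finset.sum_sub_distrib, e1, e2, sub_self]) i j
    exact_mod_cast this
  have exc : ∀ χ i j, a χ i ≠ a χ j → ∃ k, χ = x k := by
    intro χ i j hij
    by_contra hno
    push Not at hno
    apply hij
    have e1 := hac χ i
    have e2 := hac χ j
    rw [if_neg (hno i)] at e1
    rw [if_neg (hno j)] at e2
    exact_mod_cast e1.trans e2.symm
  obtain ⟨k0, rfl⟩ := exc χ0 i' j' hij'
  -- the common degree is at most `121`
  have htot : ∑ χ, n χ * (b χ + 11 * ∑ k, a χ k) = d + 11 * (t * d) := by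
    have e1 : ∀ χ, n χ * (b χ + 11 * ∑ k, a χ k) = n χ * b χ + 11 * ∑ k, n χ * a χ k := fun χ => by
      rw [← Finset.mul_sum]
      ring
    rw [Finset.sum_congr rfl fun χ _ => e1 χ, Finset.sum_add_distrib, hb, ← Finset.mul_sum,
      Finset.sum_comm]
    simp [ha]
  have hsub : ∀ f : I → ℕ, ∑ k, f (x k) ≤ ∑ χ, f χ := fun f => by
    rw [← Finset.sum_image (s := Finset.univ) (g := x) (f := f) (fun _ _ _ _ e => hx e)]
    exact Finset.sum_le_sum_of_subset (Finset.subset_univ _)
  have hD : ∀ j, b (x j) + 11 * ∑ k, a (x j) k ≤ 121 := by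
    intro j
    have e1 := hsub fun χ => n χ * (b χ + 11 * ∑ k, a χ k)
    rw [htot] at e1
    have e2 : ∑ i : Fin t, n (x i) * (b (x i) + 11 * ∑ k, a (x i) k) =
        t * (n (x k0) * (b (x j) + 11 * ∑ k, a (x j) k)) := by
      rw [Finset.sum_congr rfl fun i _ => by rw [hnn i k0, hdeg i j]]
      simp
    rw [e2] at e1
    generalize b (x j) + 11 * ∑ k, a (x j) k = D at e1
    by_contra hlt
    have e3 : 1 * 122 ≤ n (x k0) * D := Nat.mul_le_mul (Nat.pos_of_ne_zero hn0) (by omega)
    have e4 : t * (1 * 122) ≤ t * (n (x k0) * D) := Nat.mul_le_mul_left _ e3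
    have e5 : t * d ≤ t * 11 := Nat.mul_le_mul_left _ hd
    omega
  have hsum : ∀ j, ((∑ k, a (x j) k : ℕ) : ℤ) = t * c (x j) + ε := by
    intro j
    push_cast
    simp only [hac (x j), Finset.sum_add_distrib, hx.eq_iff]
    simp
  have hc0 : ∀ j, c (x j) = 0 := by
    intro j
    obtain ⟨k, hk⟩ : ∃ k, k ≠ j := by
      by_cases e : j = i0
      · exact ⟨i1, by rw [e]; exact h01⟩
      · exact ⟨i0, Ne.symm e⟩
    have e1 := hac (x j) k
    rw [if_neg (fun e => hk (hx e).symm), add_zero] at e1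
    have e2 := hsum j
    have e3 := hD j
    have e4 : (0 : ℤ) ≤ c (x j) := by rw [← e1]; positivity
    by_contra e5
    have e6 : (1 : ℤ) ≤ c (x j) := by omega
    have e7 : (t : ℤ) * 1 ≤ t * c (x j) := mul_le_mul_of_nonneg_left e6 (by positivity)
    omega
  have hone : ∀ j, ∑ k, a (x j) k = 1 := by
    intro j
    have e2 := hsum j
    rw [hc0 j, mul_zero, zero_add] at e2
    omega
  have hbb : ∀ i j, b (x i) = b (x j) := fun i j => by
    have := hdeg i j
    rw [hone i, hone j] at this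
    omega
  have hb0 : ∀ j, b (x j) = 0 := by
    intro j
    have e1 := eight i0
    have e2 : ∑ χ ∈ (Finset.univ.erase i0).image x, ((b χ : ℤ) - a χ i0) ^ 2 ≤ 12 := by
      rw [← e1]
      exact Finset.sum_le_sum_of_subset_of_nonneg (Finset.subset_univ _) fun _ _ _ => sq_nonneg _
    rw [Finset.sum_image (fun _ _ _ _ e => hx e)] at e2
    have e3 : ∑ k ∈ Finset.univ.erase i0, ((b (x k) : ℤ) - a (x k) i0) ^ 2 =
        ∑ k ∈ Finset.univ.erase i0, (b (x j) : ℤ) ^ 2 := by
      refine Finset.sum_congr rfl fun k hk => ?_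
      have hk' : k ≠ i0 := (Finset.mem_erase.1 hk).1
      rw [hac (x k) i0, hc0 k, if_neg (fun e => hk' (hx e)), hbb k j]
      ring
    rw [e3, Finset.sum_const, Finset.card_erase_of_mem (Finset.mem_univ _), Finset.card_univ,
      Fintype.card_fin, nsmul_eq_mul] at e2
    by_contra e4
    have e5 : (1 : ℤ) ≤ (b (x j) : ℤ) := by omega
    have e6 : (1 : ℤ) ≤ (b (x j) : ℤ) ^ 2 := by nlinarith
    have e7 : (17 : ℤ) ≤ ((t - 1 : ℕ) : ℤ) := by omega
    nlinarith
  intro χ i j hij
  obtain ⟨k, rfl⟩ := exc χ i j hij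
  exact ⟨hb0 k, hone k⟩

end Cfsg.Agent.S11
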