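import Mathlib
import Cfsg.Agent.S11.Defs
import Cfsg.Agent.Ch.Decomp
import Cfsg.Agent.Ch.Kernel

set_option autoImplicit false

namespace Cfsg.Agent.S11

open Matrix Cfsg.Geo Cfsg.Agent.Cl.D5 Module
open scoped MatrixGroups ComplexConjugate commutatorElement

theorem CD.not_seven {G : Type*} [Group G] [Fintype G] {S : Subgroup G} [Fintype S] {t : ℕ}
    {a : IrrCharacter G → Fin t → ℕ} {b : IrrCharacter G → ℕ} (h : CD S t a b) (ht : 30 ≤ t)
    (hn : Subgroup.normalClosure (S : Set G) = ⊤) (h1 : ∃ χ i j, a χ i ≠ a χ j)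
    (h2 : ∀ χ i j, a χ i ≠ a χ j → b χ = 0 ∧ ∑ k, a χ k = 1) : False := by
  obtain ⟨χ, i, j, hij⟩ := h1
  obtain ⟨b0, s1⟩ := h2 χ i j hij
  have s2 : ∑ k, a χ k ^ 2 = 1 := by
    rw [← s1]
    refine Finset.sum_congr rfl fun k _ => ?_
    have : a χ k ≤ 1 := s1 ▸ Finset.single_le_sum (f := a χ) (fun _ _ => Nat.zero_le _) (Finset.mem_univ k)
    interval_cases a χ k <;> rfl
  obtain ⟨m, hm, e⟩ := (χ.isCharacter.mul χ.isCharacter.complexConj).exists_mult
  have ev : ∀ g, χ.1 g * conj (χ.1 g) = ∑ φ, (m φ : ℂ) * φ.1 g := fun g => by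
    have := congrFun e g
    simpa [Finset.sum_apply] using this
  have m1 : m (Ch.irrOne G) = 1 := by
    have k := hm (Ch.irrOne G)
    have k2 := χ.2.classInner_self
    rw [Ch.classInner_def] at k k2
    simp only [Ch.coe_irrOne, map_one, mul_one, Pi.mul_apply] at k
    exact_mod_cast k.symm.trans k2
  have b1 : b (Ch.irrOne G) = 1 := by
    have k : (1 : ℂ) = _ := h.deg (Ch.irrOne G)
    have : (1 : ℕ) = b (Ch.irrOne G) + 11 * ∑ i, a (Ch.irrOne G) i := by exact_mod_cast k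
    omega
  have d49 : ∑ φ, m φ * (b φ + 11 * ∑ i, a φ i) = 121 := by
    have k := ev 1
    simp only [h.deg, b0, s1, map_natCast] at k
    exact_mod_cast k.symm
  have s7 : ∑ φ, m φ * b φ = 11 := by
    have k := h.sq χ
    simp only [ev, b0, s2] at k
    rw [Finset.sum_comm] at k
    simp only [← Finset.mul_sum, h.bdef, mul_left_comm _ (Nat.card S : ℂ)] at k
    exact_mod_cast mul_left_cancel₀ (Ch.natCard_ne_zero S) k
  rw [Finset.sum_eq_single (Ch.irrOne G) (fun φ _ hφ => ?_) (by simp), m1, b1] at s7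
  · omega
  by_contra hne
  obtain ⟨n1, n2⟩ := mul_ne_zero_iff.1 hne
  have cst : ∀ i j, a φ i = a φ j := fun i j => by
    by_contra k
    exact n2 (h2 φ i j k).1
  by_cases h0 : a φ i = 0
  · have := φ.isCharacter.charKer_normal
    refine hφ (Subtype.ext (φ.2.eq_one_of_charKer_eq_top (top_le_iff.1 (hn.ge.trans
      (Subgroup.normalClosure_le_normal fun s hs => ?_)))))
    exact φ.isCharacter.mem_charKer.2 (h.ker φ (fun k => (cst k i).trans h0) s hs)
  have k1 : ∑ k, a φ k = t * a φ i := by simp [cst _ i]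
  have k2 : m φ * (b φ + 11 * ∑ i, a φ i) ≤ 121 := d49 ▸ Finset.single_le_sum
    (f := fun φ => m φ * (b φ + 11 * ∑ i, a φ i)) (fun _ _ => Nat.zero_le _) (Finset.mem_univ φ)
  have k3 : t ≤ t * a φ i := Nat.le_mul_of_pos_right _ (Nat.pos_of_ne_zero h0)
  have k4 := Nat.le_mul_of_pos_left (b φ + 11 * ∑ i, a φ i) (Nat.pos_of_ne_zero n1)
  omega

end Cfsg.Agent.S11
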