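import Mathlib
import Cfsg.Agent.S11.Defs
import Cfsg.Agent.S11.ChD
import Cfsg.Agent.S11.ChC
import Cfsg.Agent.S11.ChE
import Cfsg.Agent.Perm.PermChar
import Cfsg.Agent.Ch.Kernel

set_option autoImplicit false

namespace Cfsg.Agent.S11

open Matrix Cfsg.Geo Cfsg.Agent.Cl.D5 Module
open scoped MatrixGroups ComplexConjugate commutatorElement

open MulAction in
theorem ChM_two {G Ω : Type*} [Group G] [Finite Ω] [MulAction G Ω] {s : G} (hs : ∀ x : Ω, s • x ≠ x)
    (h0 : 1 ≤ Nat.card (orbitRel.Quotient G Ω))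
    (h : Nat.card (orbitRel.Quotient G (Ω × Ω)) = Nat.card (orbitRel.Quotient G Ω) ^ 2 + 1) : Two G Ω := by
  classical
  let π : Ω → orbitRel.Quotient G Ω := fun x => Quotient.mk'' x
  have hπ : ∀ (g : G) (x : Ω), π (g • x) = π x := fun g x => Quotient.sound' ⟨g, rfl⟩
  let f : orbitRel.Quotient G (Ω × Ω) →
      (orbitRel.Quotient G Ω × orbitRel.Quotient G Ω) ⊕ orbitRel.Quotient G Ω :=
    fun o => Quotient.liftOn' o (fun p => if p.1 = p.2 then .inr (π p.1) else .inl (π p.1, π p.2)) (by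
      rintro _ ⟨x, y⟩ ⟨g, rfl⟩
      simp only [Prod.smul_mk, smul_left_cancel_iff, hπ])
  have hf : ∀ x y : Ω, f (Quotient.mk'' (x, y)) = if x = y then .inr (π x) else .inl (π x, π y) := fun _ _ => rfl
  have sf : Function.Surjective f := by
    rintro (⟨o, o'⟩ | o)
    · obtain ⟨x, rfl⟩ := Quotient.exists_rep o
      obtain ⟨y, rfl⟩ := Quotient.exists_rep o'
      by_cases e : x = y
      · subst e
        exact ⟨Quotient.mk'' (x, s • x), by rw [hf, if_neg (hs x).symm, hπ]⟩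
      · exact ⟨Quotient.mk'' (x, y), by rw [hf, if_neg e]⟩
    · obtain ⟨x, rfl⟩ := Quotient.exists_rep o
      exact ⟨Quotient.mk'' (x, x), by rw [hf, if_pos rfl]⟩
  have hc := Nat.card_le_card_of_surjective f sf
  rw [Nat.card_sum, Nat.card_prod, h] at hc
  have h1 : Nat.card (orbitRel.Quotient G Ω) = 1 := by nlinarith
  have bf := (Nat.bijective_iff_surjective_and_card f).2 ⟨sf, by rw [Nat.card_sum, Nat.card_prod, h, h1]; rfl⟩
  have := (Nat.card_eq_one_iff_unique.1 h1).1
  intro x y x' y' e e'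
  have := bf.1 (a₁ := Quotient.mk'' (x', y')) (a₂ := Quotient.mk'' (x, y)) (by
    rw [hf, hf, if_neg e, if_neg e', Subsingleton.elim (π x') (π x), Subsingleton.elim (π y') (π y)])
  obtain ⟨g, hg⟩ := Quotient.exact' this
  exact ⟨g, congrArg Prod.fst hg, congrArg Prod.snd hg⟩

theorem TID.two_or {G Ω : Type*} [Group G] [Finite G] [Finite Ω] [MulAction G Ω] {S : Subgroup G}
    {m d : ℕ} (h : TID S m) (hm : 400 ≤ m) (hn : Subgroup.normalClosure (S : Set G) = ⊤)
    (hs : ∀ s ∈ S, s ≠ 1 → ∀ x : Ω, s • x ≠ x) (hd : Nat.card Ω = d * m) (h1 : 1 ≤ d)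
    (h7 : d ≤ 11) :
    Two G Ω ∨ ∃ a c : ℕ, 1 ≤ c ∧ c ≤ 3 ∧ c ≤ a ∧ a < d ∧ a * m - c ∣ Nat.card G := by
  classical
  have := Fintype.ofFinite G
  have := Fintype.ofFinite S
  obtain ⟨t, a, b, hmt, C⟩ := h.exists_cd
  have ht : 30 ≤ t := by omega
  have hπ : IsCharacter G (Perm.permChar G Ω) := Ch.isCharacter_permChar Ω
  obtain ⟨n, hn1, hn2⟩ := hπ.exists_mult
  obtain ⟨n', hn1', hn3, -⟩ := hπ.exists_nat_classInner_self
  obtain rfl : n = n' := funext fun χ => by exact_mod_cast (hn1 χ).symm.trans (hn1' χ)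
  have ev : ∀ g, ∑ χ, (n χ : ℂ) * χ.1 g = Perm.permChar G Ω g := fun g => by
    conv_rhs => rw [hn2]
    simp [Finset.sum_apply]
  obtain ⟨ha, hb⟩ := C.reg n d (fun s hs' s1 => by
      rw [ev]
      have : IsEmpty (MulAction.fixedBy Ω s) := ⟨fun x => hs s hs' s1 x.1 x.2⟩
      simp [Perm.permChar])
    (by rw [ev, Perm.permChar_apply_one, hd, h.card, Nat.cast_mul])
  have dg : ∀ χ : IrrCharacter G, charDegree χ.1 = b χ + 11 * ∑ i, a χ i := fun χ =>
    Ch.charDegree_of_apply_one (C.deg χ)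
  have hc : ∀ χ, n χ ≠ 0 → ∀ i j, a χ i = a χ j :=
    (exc_comb ht h7 a b n C.two C.eight (fun χ => dg χ ▸ χ.2.charDegree_pos) C.orth ha hb).resolve_right
      fun k => C.not_seven ht hn k.1 k.2
  let e : IrrCharacter G := ⟨fun _ => 1, IsIrrCharacter.one⟩
  let i : Fin t := ⟨0, by omega⟩
  have de : b e + 11 * ∑ j, a e j = 1 := by rw [← dg]; exact Ch.charDegree_of_apply_one Nat.cast_one.symm
  have ae : a e i = 0 := by
    have := Finset.single_le_sum (f := a e) (fun _ _ => Nat.zero_le _) (Finset.mem_univ i)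
    omega
  have be : b e = 1 := by omega
  have ne : n e = Nat.card (MulAction.orbitRel.Quotient G Ω) := by
    exact_mod_cast (hn1 e).symm.trans Perm.classInner_permChar_one_eq
  have : Nonempty Ω := (Nat.card_pos_iff.1 (by rw [hd]; positivity)).1
  have : Nonempty (MulAction.orbitRel.Quotient G Ω) := this.map Quotient.mk''
  have k1 : 1 ≤ Nat.card (MulAction.orbitRel.Quotient G Ω) := Nat.card_pos
  have nt : ∀ χ, n χ ≠ 0 → χ ≠ e → a χ i ≠ 0 := fun χ h0 he ha0 => by
    have := χ.2.isCharacter.charKer_normal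
    refine he (Subtype.ext (χ.2.eq_one_of_charKer_eq_top (top_le_iff.1 ?_)))
    rw [← hn]
    exact Subgroup.normalClosure_le_normal fun x hx =>
      χ.2.mem_charKer.2 (C.ker χ (fun j => (hc χ h0 j i).trans ha0) x hx)
  obtain ⟨χ, h0, hlt⟩ : ∃ χ, n χ ≠ 0 ∧ b χ < a χ i := by
    by_contra H
    push Not at H
    have : ∑ χ, n χ * a χ i < ∑ χ, n χ * b χ := Finset.sum_lt_sum (fun χ _ => by
      by_cases h0 : n χ = 0
      · simp [h0]
      · exact Nat.mul_le_mul_left _ (H χ h0)) ⟨e, Finset.mem_univ _, by rw [ae, be]; omega⟩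
    rw [ha, hb] at this
    omega
  have he : χ ≠ e := by rintro rfl; omega
  have pr : ∀ {M : Type} [AddCommMonoid M] [PartialOrder M] [IsOrderedAddMonoid M] (F : IrrCharacter G → M),
      (∀ ψ, 0 ≤ F ψ) → F χ + F e ≤ ∑ ψ, F ψ := fun F hF => by
    rw [← Finset.sum_pair he]
    exact Finset.sum_le_sum_of_subset_of_nonneg (Finset.subset_univ _) fun ψ _ _ => hF ψ
  by_cases hlt' : a χ i < d
  · refine .inr ⟨a χ i, a χ i - b χ, by omega, ?_, by omega, hlt', ?_⟩
    · have h8 := pr (fun ψ => ((b ψ : ℤ) - a ψ i) ^ 2) fun _ => sq_nonneg _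
      rw [C.eight, ae, be] at h8
      by_contra H
      have : (4 : ℤ) ≤ a χ i - b χ := by omega
      push_cast at h8
      nlinarith
    · have := χ.2.charDegree_dvd_card
      rw [dg, Finset.sum_congr rfl fun j _ => hc χ h0 j i, Finset.sum_const, Finset.card_univ, Fintype.card_fin,
        smul_eq_mul] at this
      convert this using 1
      rw [hmt, mul_add, mul_one, mul_comm (a χ i), mul_assoc]
      omega
  · left
    have hz : ∀ ψ, ψ ≠ χ → n χ * a χ i + n ψ * a ψ i ≤ d := fun ψ hψ => by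
      rw [← ha i, ← Finset.sum_pair (f := fun ψ => n ψ * a ψ i) hψ.symm]
      exact Finset.sum_le_sum_of_subset (Finset.subset_univ _)
    have n1 : n χ = 1 := by
      have := hz e he.symm
      by_contra H
      have : 2 * a χ i ≤ n χ * a χ i := Nat.mul_le_mul_right _ (by omega)
      omega
    have hs2 : ∑ ψ, n ψ ^ 2 = n χ ^ 2 + n e ^ 2 := by
      rw [← Finset.sum_pair (f := fun ψ => n ψ ^ 2) he]
      refine (Finset.sum_subset (Finset.subset_univ _) fun ψ _ hψ => ?_).symm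
      simp only [Finset.mem_insert, Finset.mem_singleton, not_or] at hψ
      by_contra H
      have h2 : n ψ ≠ 0 := fun k => H (by rw [k]; rfl)
      have := hz ψ hψ.1
      have := Nat.pos_of_ne_zero (mul_ne_zero h2 (nt ψ h2 hψ.2))
      rw [n1] at *
      omega
    have : Nontrivial S := Finite.one_lt_card_iff_nontrivial.1 (by rw [h.card]; omega)
    obtain ⟨s, s1⟩ := exists_ne (1 : S)
    refine ChM_two (hs s s.2 fun k => s1 (Subtype.ext k)) k1 ?_
    rw [Perm.classInner_permChar_self, hs2, n1, ne] at hn3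
    have := Nat.cast_injective (R := ℂ) hn3
    omega

end Cfsg.Agent.S11
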