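import Mathlib
import Cfsg.Agent.S11.Defs
import Cfsg.Agent.S11.ChM
import Cfsg.Agent.S11.Frob
import Cfsg.Agent.S11.ChF

set_option autoImplicit false

namespace Cfsg.Agent.S11

open Matrix Cfsg.Geo Cfsg.Agent.Cl.D5 Module
open scoped MatrixGroups ComplexConjugate commutatorElement

theorem abs_between {G : Type*} [Group G] [Finite G] {S K N : Subgroup G} {m : ℕ} (hS : Nat.card S = m)
    (hN : Nat.card N = 11 * m) (h1 : S ≤ K) (h2 : K ≤ N) : K = S ∨ K = N := by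
  obtain ⟨k, hk⟩ := Subgroup.card_dvd_of_le h1
  have h3 := Subgroup.card_dvd_of_le h2
  have hm : 0 < m := hS ▸ Nat.card_pos
  rw [hk, hN, hS, mul_comm 11, Nat.mul_dvd_mul_iff_left hm] at h3
  rcases (Nat.dvd_prime (by norm_num : Nat.Prime 11)).1 h3 with e | e
  · exact .inl (Subgroup.eq_of_le_of_card_ge h1 (by rw [hk, e, mul_one])).symm
  · exact .inr (Subgroup.eq_of_le_of_card_ge h2 (by rw [hk, e, hN, hS, mul_comm]))

theorem TID.abs_normal {G : Type*} [Group G] [Finite G] {S : Subgroup G} {m : ℕ} (h : TID S m) (hm : 11 < m)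
    (hL : Subgroup.normalClosure (S : Set G) ≤ Subgroup.normalizer (S : Set G)) : S.Normal := by
  classical
  obtain ⟨n, -, -, h3, -, h5⟩ := h.fusion
  rw [← Subgroup.normalizer_eq_top_iff, eq_top_iff]
  intro g _
  have := Fintype.ofFinite S
  have hc : ∀ s : S, ∃ k, ∃ t ∈ S, g * s * g⁻¹ = n k * t := fun s =>
    h3 _ (hL (Subgroup.normalClosure_normal.conj_mem _ (Subgroup.subset_normalClosure s.2) g))
  choose f t ht e using hc
  obtain ⟨x, y, hxy, hf⟩ := Fintype.exists_ne_map_eq_of_card_lt f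
    (by rw [← Nat.card_eq_fintype_card (α := S), h.card, Fintype.card_fin]; exact hm)
  refine h5 ((x : G)⁻¹ * y) (mul_mem (inv_mem x.2) y.2) (fun e => hxy (Subtype.ext (inv_mul_eq_one.1 e))) g ?_
  have : g * ((x : G)⁻¹ * y) * g⁻¹ = (t x)⁻¹ * t y := by
    calc _ = (g * x * g⁻¹)⁻¹ * (g * y * g⁻¹) := by group
      _ = _ := by rw [e x, e y, hf]; group
  rw [this]
  exact mul_mem (inv_mem (ht x)) (ht y)

universe u in
theorem abs_main {Ω : Type*} [Finite Ω] {m d B : ℕ} (hm : 400 ≤ m) (hd : Nat.card Ω = d * m) (h1 : 1 ≤ d)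
    (h7 : d ≤ 11) (hBm : B + 12 ≤ m) (n : ℕ) :
    ∀ (G : Type u) [Group G] [Finite G] [MulAction G Ω] (S : Subgroup G), Nat.card G = n → TID S m →
      (∀ s ∈ S, s ≠ 1 → ∀ x : Ω, s • x ≠ x) → (∀ g : G, g ≠ 1 → Nat.card (MulAction.fixedBy Ω g) ≤ B) →
      S.Normal ∨ Two G Ω ∨ ∃ a c : ℕ, 1 ≤ c ∧ c ≤ 3 ∧ c ≤ a ∧ a < d ∧ a * m - c ∣ Nat.card G := by
  induction n using Nat.strong_induction_on with
  | _ n ih =>
  intro G _ _ _ S hn h hs hB
  by_cases hL : Subgroup.normalClosure (S : Set G) = ⊤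
  · exact .inr (h.two_or hm hL hs hd h1 h7)
  set L := Subgroup.normalClosure (S : Set G) with hLd
  have hSL : S ≤ L := Subgroup.le_normalClosure
  have hcard : Nat.card (S.subgroupOf L) = m := by
    rw [Nat.card_congr (Subgroup.subgroupOfEquivOfLe hSL).toEquiv, h.card]
  have hnorm := Subgroup.subgroupOf_normalizer_eq hSL
  have hcomm : ∀ a ∈ S.subgroupOf L, ∀ b ∈ S.subgroupOf L, a * b = b * a := fun a ha b hb =>
    Subtype.ext (h.comm a ha b hb)
  have hcent : ∀ s ∈ S.subgroupOf L, s ≠ 1 → ∀ g : L, g * s = s * g → g ∈ S.subgroupOf L :=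
    fun s hs h1 g e => h.cent s hs (fun e => h1 (Subtype.ext e)) g (congrArg Subtype.val e)
  have hs' : ∀ s ∈ S.subgroupOf L, s ≠ 1 → ∀ x : Ω, s • x ≠ x := fun s h0 h1 x =>
    hs s h0 (fun e => h1 (Subtype.ext e)) x
  have hB' : ∀ g : L, g ≠ 1 → Nat.card (MulAction.fixedBy Ω g) ≤ B := fun g h1 =>
    hB g fun e => h1 (Subtype.ext e)
  rcases abs_between (K := Subgroup.normalizer (S : Set G) ⊓ L) h.card h.idx
    (le_inf Subgroup.le_normalizer hSL) inf_le_left with e | e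
  · have : Nonempty Ω := (Nat.card_pos_iff.1 (by rw [hd]; exact Nat.mul_pos h1 (by omega))).1
    have htop := frob_count (Ω := Ω) hcomm hcard hcent
      (by rw [← hnorm, ← Subgroup.inf_subgroupOf_right, e]) hs'
      (by rw [hd]; exact Nat.mul_le_mul_right _ h7) hB' hBm
    rw [Subgroup.subgroupOf_eq_top] at htop
    exact .inl (le_antisymm hSL htop ▸ Subgroup.normalClosure_normal)
  · have hNL : Subgroup.normalizer (S : Set G) ≤ L := e ▸ inf_le_right
    have hT : TID (S.subgroupOf L) m := ⟨hcomm, hcard, hcent, by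
      rw [← hnorm, Nat.card_congr (Subgroup.subgroupOfEquivOfLe hNL).toEquiv, h.idx]⟩
    have hlt : Nat.card L < n := hn ▸ lt_of_not_ge fun k => hL (Subgroup.eq_top_of_le_card _ k)
    rcases ih _ hlt L _ rfl hT hs' hB' with k | k | ⟨a, c, k1, k2, k3, k4, k5⟩
    · exact .inl (h.abs_normal (by omega) ((Subgroup.normal_subgroupOf_iff_le_normalizer hSL).1 k))
    · exact .inr (.inl fun x y x' y' h1 h2 => let ⟨g, hg⟩ := k x y x' y' h1 h2; ⟨g, hg⟩)
    · exact .inr (.inr ⟨a, c, k1, k2, k3, k4, k5.trans (Subgroup.card_subgroup_dvd_card L)⟩)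

theorem TID.main {G Ω : Type*} [Group G] [Finite G] [Finite Ω] [MulAction G Ω] {S : Subgroup G}
    {m d B : ℕ} (h : TID S m) (hm : 400 ≤ m) (hs : ∀ s ∈ S, s ≠ 1 → ∀ x : Ω, s • x ≠ x)
    (hd : Nat.card Ω = d * m) (h1 : 1 ≤ d) (h7 : d ≤ 11)
    (hB : ∀ g : G, g ≠ 1 → Nat.card (MulAction.fixedBy Ω g) ≤ B) (hBm : B + 12 ≤ m) :
    S.Normal ∨ Two G Ω ∨
      ∃ a c : ℕ, 1 ≤ c ∧ c ≤ 3 ∧ c ≤ a ∧ a < d ∧ a * m - c ∣ Nat.card G := 
  abs_main hm hd h1 h7 hBm _ G S rfl h hs hB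

end Cfsg.Agent.S11
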