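import Cfsg.Agent.S11.NTc

set_option autoImplicit false

namespace Cfsg.Agent.S11.NT

theorem t10_3 : chk 10 33 10546838218537953013327289646388959410926628567897598580762198827 608 = true := by
  decide +kernel

end Cfsg.Agent.S11.NT
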