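import Cfsg.Agent.S11.NTc

set_option autoImplicit false

namespace Cfsg.Agent.S11.NT

theorem t8_3 : chk 8 33 914236324820207777717751924594541235749180801212787628173828125 487 = true := by
  decide +kernel

theorem t5_2 : chk 5 22 311842970668516654222237322357142402316352205789760926 58 = true := by
  decide +kernel

theorem t3_2 : chk 3 22 40750764262049766121451317017955517390456024083642 25 = true := by
  decide +kernel

theorem t4_2 : chk 4 22 56383301758879878131309455980567384293376000000 13 = true := by
  decide +kernel

theorem t4_1 : chk 4 11 72850380074582385737407602162728046262977 4 = true := by
  decide +kernel

theorem t2_1 : chk 2 11 52511041759401446330649271589300953125 2 = true := by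
  decide +kernel

end Cfsg.Agent.S11.NT
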