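import Cfsg.Agent.S11.NTc

set_option autoImplicit false

namespace Cfsg.Agent.S11.NT

theorem t7_3 : chk 7 33 151570934490235282878030841312306421316338178285911011825287168 413 = true := by
  decide +kernel

theorem t7_2 : chk 7 22 39254401595324383331847188177362062527114295959472656250 91 = true := by
  decide +kernel

theorem t6_3 : chk 6 33 10811557835312553018940212316246235234240933412328125 41 = true := by
  decide +kernel

theorem t8_2 : chk 8 22 78222499980375346899955623777673957210365307650048 25 = true := by
  decide +kernel

theorem t8_1 : chk 8 11 21893661095209985143879139628616697231820975 6 = true := by
  decide +kernel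

theorem t5_1 : chk 5 11 1144837774890693752350988395039599146041344 5 = true := by
  decide +kernel

theorem t7_1 : chk 7 11 4531860566381418466159286195249056894156800 5 = true := by
  decide +kernel

theorem t10_1 : chk 10 11 100081984232886928996290812796917273873823 4 = true := by
  decide +kernel

end Cfsg.Agent.S11.NT
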