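import Cfsg.Agent.S11.NTc

set_option autoImplicit false

namespace Cfsg.Agent.S11.NT

theorem t5_3 : chk 5 33 289300953085427262277977030197064229993019859569795559063552 228 = true := by
  decide +kernel

theorem t4_3 : chk 4 33 284670589787632423688645056874852518122069933150255099825 117 = true := by
  decide +kernel

theorem t9_2 : chk 9 22 302099704534039330567899724727686464758467720711104823450 109 = true := by
  decide +kernel

theorem t9_3 : chk 9 33 3086693227605803166117682776868462777703185839135129600 69 = true := by
  decide +kernel

theorem t10_2 : chk 10 22 1229260200595234910274754567492651739299275085971456 31 = true := by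
  decide +kernel

theorem t6_2 : chk 6 22 16097398574768628533592693935997755078926244249600 22 = true := by
  decide +kernel

theorem t6_1 : chk 6 11 4429492406294918374771063176059722900390625 5 = true := by
  decide +kernel

theorem t9_1 : chk 9 11 10259901339247757914059496406908073972596736 5 = true := by
  decide +kernel

theorem t3_1 : chk 3 11 14991870685265053560577979251740272230400 3 = true := by
  decide +kernel

end Cfsg.Agent.S11.NT
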