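/-
A finite divisibility check.
-/
import Mathlib

set_option autoImplicit false

namespace Cfsg.Agent.S11.NT

/-- Bounded conjunction. -/
noncomputable def allLt (n : ℕ) (f : ℕ → Bool) : Bool :=
  Nat.rec true (fun i ih => Bool.rec false ih (f i)) n

/-- One non-divisibility. -/
noncomputable def ok (a c C q : ℕ) : Bool :=
  Nat.blt 0 (Nat.mod C (Nat.sub (Nat.mul a (Nat.div (Nat.pow q 11) (Nat.pred q))) c))

/-- All non-divisibilities below a bound. -/
noncomputable def chk (a c C n : ℕ) : Bool :=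
  allLt n fun i => allLt 300 fun j => ok a c C (Nat.add (Nat.mul 3300 i) (Nat.add (Nat.mul 11 j) 12))

theorem allLt_spec {f : ℕ → Bool} : ∀ {n : ℕ}, allLt n f = true → ∀ i < n, f i = true
  | 0, _, _, h => absurd h (Nat.not_lt_zero _)
  | n + 1, h, i, hi => by
    have h' : (Bool.rec false (allLt n f) (f n) : Bool) = true := h
    cases e : f n
    · rw [e] at h'
      exact absurd h' (by simp)
    · rw [e] at h'
      rcases Nat.lt_succ_iff_lt_or_eq.1 hi with k | rfl
      · exact allLt_spec h' i k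
      · exact e

theorem chk_spec {a c C n q : ℕ} (h : chk a c C n = true) (h1 : q % 11 = 1) (h2 : 12 ≤ q) (h3 : q < 3300 * n) :
    ¬ a * (q ^ 11 / (q - 1)) - c ∣ C := by
  have k := allLt_spec (allLt_spec h ((q - 12) / 3300) (by omega)) ((q - 12) % 3300 / 11) (by omega)
  have e : Nat.add (Nat.mul 3300 ((q - 12) / 3300)) (Nat.add (Nat.mul 11 ((q - 12) % 3300 / 11)) 12) = q := by
    change 3300 * ((q - 12) / 3300) + (11 * ((q - 12) % 3300 / 11) + 12) = q
    omega
  rw [e, ok, Nat.blt_eq] at k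
  intro d
  exact k.ne' (Nat.mod_eq_zero_of_dvd d)

end Cfsg.Agent.S11.NT
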