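import Mathlib
import Cfsg.Agent.S11.Defs
import Cfsg.Agent.Cl.MxLin3
import Cfsg.Agent.Cl.ClassSinger

set_option autoImplicit false
set_option linter.unusedSectionVars false

namespace Cfsg.Agent.S11

open Matrix Cfsg.Geo Cfsg.Agent.Cl.D5 Module
open scoped MatrixGroups ComplexConjugate commutatorElement

variable {F : Type*} [Field F] [Fintype F]

local notation "M11" => Matrix (Fin 11) (Fin 11) F
local notation "SL11" => specialLinear (Fin 11) F
local notation "Z11" => scalars (Fin 11) F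
local notation "GL11" => GL (Fin 11) F

namespace SingA

open Cfsg.Agent.Cl.Max Cfsg.Agent.Cl.Mx

theorem crd {G : Type*} [Group G] (H A : Subgroup G) :
    Nat.card ↥(H ⊓ A) * A.relIndex H = Nat.card H := by
  rw [← (A.subgroupOf H).card_mul_index, ← Subgroup.inf_subgroupOf_left,
    Nat.card_congr (Subgroup.subgroupOfEquivOfLe (inf_le_left : H ⊓ A ≤ H)).toEquiv,
    Subgroup.inf_subgroupOf_left]
  rfl

theorem th_mul {q : ℕ} (hq : 1 ≤ q) : th q * (q - 1) = q ^ 11 - 1 := by
  obtain ⟨k, rfl⟩ := Nat.exists_eq_add_of_le' hq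
  rw [Nat.add_sub_cancel]
  exact (Nat.sub_eq_of_eq_add (by unfold th; ring)).symm

variable {K : Subalgebra F (Matrix (Fin 11) (Fin 11) F)} {x y : Matrix (Fin 11) (Fin 11) F}
  {s g : GL (Fin 11) F}

theorem q2 : 2 ≤ Fintype.card F := Fintype.one_lt_card

theorem span_pow (hK : IsFieldSubalgebra 11 K) (hx : x ∈ K) (hs : ∀ c : F, x ≠ c • 1)
    {v : Fin 11 → F} (hv : v ≠ 0) (w : Fin 11 → F) :
    ∃ a : Fin 11 → F, ∑ i, a i • x ^ (i : ℕ) *ᵥ v = w := by
  have h := (linearIndependent_pow_of_prime hK (by norm_num) hx hs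
    hv).span_eq_top_of_card_eq_finrank' (by simp)
  exact (Submodule.mem_span_range_iff_exists_fun F).1 (h ▸ Submodule.mem_top (x := w))

theorem mem_of_comm (hK : IsFieldSubalgebra 11 K) (hx : x ∈ K) (hs : ∀ c : F, x ≠ c • 1)
    (h : y * x = x * y) : y ∈ K := by
  have hv : (Pi.single 0 1 : Fin 11 → F) ≠ 0 := by simp
  generalize (Pi.single 0 1 : Fin 11 → F) = v at hv
  obtain ⟨k, hk, e⟩ := singer_exists hK (by simp) hv (y *ᵥ v)
  suffices y = k from this ▸ hk
  refine Matrix.ext_iff_mulVec.2 fun w => ?_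
  obtain ⟨a', rfl⟩ := span_pow hK hx hs hv w
  have h1 : ∀ i : ℕ, y *ᵥ x ^ i *ᵥ v = k *ᵥ x ^ i *ᵥ v := fun i => by
    rw [mulVec_mulVec, (Commute.pow_right h i).eq, mulVec_mulVec, hK.comm k hk _ (pow_mem hx i),
      ← mulVec_mulVec, ← mulVec_mulVec, e]
  simp only [mulVec_sum, mulVec_smul, h1]

theorem mem_Z {c : F} (e : (s : M11) = c • 1) : s ∈ Z11 := by
  have c0 : c ≠ 0 := by
    rintro rfl
    exact s.ne_zero (e.trans (zero_smul _ _))
  exact (mem_scalars_iff s).2 ⟨Units.mk0 c c0, e⟩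

theorem ns (hs : s ∉ Z11) (c : F) : (s : M11) ≠ c • 1 := fun e => hs (mem_Z e)

/-- The units of `K` as invertible matrices. -/
def io (K : Subalgebra F (Matrix (Fin 11) (Fin 11) F)) : Kˣ →* GL (Fin 11) F :=
  Units.map K.val.toMonoidHom

theorem io_inj : Function.Injective (io K) := Units.map_injective Subtype.val_injective

theorem mem_io (hK : IsFieldSubalgebra 11 K) : s ∈ (io K).range ↔ (s : M11) ∈ K := by
  refine ⟨?_, fun h => ?_⟩
  · rintro ⟨a, rfl⟩
    exact (a : K).2
  · obtain ⟨y, hy, e⟩ := hK.inv _ h s.ne_zero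
    exact ⟨⟨⟨s, h⟩, ⟨y, hy⟩, Subtype.ext e, Subtype.ext ((hK.comm _ hy _ h).trans e)⟩,
      Units.ext rfl⟩

theorem card_io (hK : IsFieldSubalgebra 11 K) : Nat.card (io K).range = Fintype.card F ^ 11 - 1 := by
  let _ := (IsFieldSubalgebra.isField hK).toField
  rw [← Nat.card_congr (MonoidHom.ofInjective io_inj).toEquiv, Nat.card_units,
    card_fieldSubalgebra hK]

theorem det_iff (hK : IsFieldSubalgebra 11 K) (hs : (s : M11) ∈ K) :
    s ∈ SL11 ↔ s ^ th (Fintype.card F) = 1 := by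
  have h1 := singer_det hK (by simp) hs
  have := q2 (F := F)
  rw [← th_mul (by omega), Nat.mul_div_cancel _ (by omega), ← Units.val_pow_eq_pow_val] at h1
  rw [mem_specialLinear_iff]
  refine ⟨fun e => Units.ext (by rw [← h1, e, one_smul, Units.val_one]), fun e => ?_⟩
  rw [e] at h1
  simpa using congrFun₂ h1 0 0

theorem card_S (hK : IsFieldSubalgebra 11 K) :
    Nat.card ↥((io K).range ⊓ SL11) = th (Fintype.card F) := by
  let _ := (IsFieldSubalgebra.isField hK).toField
  have e : (io K).range ⊓ SL11 =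
      ((powMonoidHom (th (Fintype.card F)) : Kˣ →* Kˣ).ker).map (io K) := by
    ext s
    constructor
    · rintro ⟨⟨a, rfl⟩, h⟩
      refine ⟨a, io_inj ?_, rfl⟩
      rw [powMonoidHom_apply, map_pow, map_one]
      exact (det_iff hK (a : K).2).1 h
    · rintro ⟨a, h, rfl⟩
      refine ⟨⟨a, rfl⟩, (det_iff hK (a : K).2).2 ?_⟩
      rw [← map_pow, show a ^ th (Fintype.card F) = 1 from h, map_one]
  have := q2 (F := F)
  rw [e, Subgroup.card_map_of_injective io_inj, IsCyclic.card_powMonoidHom_ker, Nat.card_units,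
    card_fieldSubalgebra hK, ← th_mul (by omega), Nat.gcd_mul_right_left]

theorem det_top (hK : IsFieldSubalgebra 11 K) :
    (io K).range.map (Matrix.GeneralLinearGroup.det : GL11 →* Fˣ) = ⊤ := by
  have h := crd (io K).range SL11
  have := q2 (F := F)
  rw [card_S hK, card_io hK, ← th_mul (by omega), specialLinear, Subgroup.relIndex_ker] at h
  refine Subgroup.eq_top_of_card_eq _ ?_
  rw [Nat.eq_of_mul_eq_mul_left (by unfold th; omega) h, Nat.card_units, Nat.card_eq_fintype_card]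

theorem normalizer_eq (hK : IsFieldSubalgebra 11 K) :
    Subgroup.normalizer ((io K).range : Set GL11) = subalgebraNormalizer K := by
  ext g
  rw [Subgroup.mem_normalizer_iff]
  refine ⟨fun h => mem_subalgebraNormalizer_of_maps fun k hk => ?_, fun h s => ?_⟩
  · by_cases k0 : k = 0
    · rw [k0, map_zero]; exact zero_mem _
    · obtain ⟨u, rfl⟩ := IsFieldSubalgebra.isUnit hK hk k0
      rw [cj_coe]
      exact (mem_io hK).1 ((h u).1 ((mem_io hK).2 hk))
  · rw [mem_io hK, mem_io hK, ← cj_coe]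
    exact mem_subalgebraNormalizer.1 h _

theorem card_N (hK : IsFieldSubalgebra 11 K) :
    Nat.card (subalgebraNormalizer K) = 11 * (Fintype.card F ^ 11 - 1) := by
  let _ := (IsFieldSubalgebra.isField hK).toField
  have hv : (Pi.single 0 1 : Fin 11 → F) ≠ 0 := by simp
  let L := LinearEquiv.ofBijective _ (evAt_bijective hK (by simp) hv)
  let e : End F K ≃ₐ[F] M11 := (L.conjAlgEquiv F).trans LinearMap.toMatrixAlgEquiv'
  let u : (End F K)ˣ ≃* GL11 := Units.mapEquiv e.toMulEquiv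
  have he : ∀ a : Kˣ, u (Cl.Cls.singerHom F K a) = io K a := fun a => by
    refine Units.ext (Matrix.ext_iff_mulVec.2 fun w => ?_)
    obtain ⟨b, rfl⟩ := L.surjective w
    change LinearMap.toMatrixAlgEquiv' (L.conjAlgEquiv F (Cl.Cls.singerHom F K a : End F K)) *ᵥ L b =
      ((a : K) : M11) *ᵥ L b
    rw [← Matrix.toLinAlgEquiv'_apply, Matrix.toLinAlgEquiv'_toMatrixAlgEquiv']
    change L ((Cl.Cls.singerHom F K a : End F K) (L.symm (L b))) = _
    rw [L.symm_apply_apply]
    exact (mulVec_mulVec (Pi.single 0 1) ((a : K) : M11) (b : M11)).symm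
  have hr : (Cl.Cls.singerHom F K).range.map u.toMonoidHom = (io K).range := by
    rw [MonoidHom.map_range]
    exact congrArg _ (MonoidHom.ext he)
  have : Finite K := Subtype.finite
  rw [← normalizer_eq hK, ← hr, ← Subgroup.map_equiv_normalizer_eq,
    Subgroup.card_map_of_injective (f := u.toMonoidHom) u.injective, Cl.Cls.card_normalizer_singer,
    IsGalois.card_aut_eq_finrank, hK.finrank_eq, card_fieldSubalgebra hK]

theorem card_Z : Nat.card Z11 = Fintype.card F - 1 ∧
    Nat.card ↥(Z11 ⊓ SL11) = Nat.gcd 11 (Fintype.card F - 1) := by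
  let j : Fˣ →* GL11 := Units.map (Matrix.scalar (Fin 11) : F →+* M11).toMonoidHom
  have ji : Function.Injective j := Units.map_injective fun _ _ h => Matrix.scalar_inj.1 h
  have hj : ∀ c : Fˣ, j c ∈ SL11 ↔ c ^ 11 = 1 := fun c => by
    rw [mem_specialLinear_iff, ← Units.val_inj]
    change (Matrix.scalar (Fin 11) (c : F)).det = 1 ↔ _
    simp
  refine ⟨?_, ?_⟩
  · rw [scalars, ← Nat.card_congr (MonoidHom.ofInjective ji).toEquiv, Nat.card_units,
      Nat.card_eq_fintype_card]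
  have e : Z11 ⊓ SL11 = ((powMonoidHom 11 : Fˣ →* Fˣ).ker).map j := by
    ext s
    constructor
    · rintro ⟨⟨a, rfl⟩, h⟩
      exact ⟨a, (hj a).1 h, rfl⟩
    · rintro ⟨a, h, rfl⟩
      exact ⟨⟨a, rfl⟩, (hj a).2 h⟩
  rw [e, Subgroup.card_map_of_injective ji, IsCyclic.card_powMonoidHom_ker, Nat.card_units,
    Nat.card_eq_fintype_card, Nat.gcd_comm]

theorem Z_le (hK : IsFieldSubalgebra 11 K) : Z11 ≤ (io K).range := fun s hs => by
  obtain ⟨c, e⟩ := (mem_scalars_iff s).1 hs
  rw [mem_io hK, e]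
  exact K.smul_mem (one_mem K) _

theorem pow7 (hz : s ∈ Z11) (hs : s ∈ SL11) : s ^ 11 = 1 := by
  obtain ⟨c, e⟩ := (mem_scalars_iff s).1 hz
  rw [mem_specialLinear_iff, e] at hs
  refine Units.ext ?_
  rw [Units.val_pow_eq_pow_val, e, _root_.smul_pow, show (c : F) ^ 11 = 1 by simpa using hs]
  simp

theorem powq (hz : s ∈ Z11) : s ^ (Fintype.card F - 1) = 1 := by
  have := pow_card_eq_one' (G := Z11) (x := ⟨s, hz⟩)
  rw [card_Z.1] at this
  exact congrArg Subtype.val this

theorem Z_comm (hz : s ∈ Z11) (g : GL11) : Commute s g := by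
  obtain ⟨c, e⟩ := (mem_scalars_iff s).1 hz
  exact Units.ext (by simp [e])

theorem cent (hK : IsFieldSubalgebra 11 K) (hs : (s : M11) ∈ K) (hs1 : s ∈ SL11) (hz : s ∉ Z11)
    (h : g * s * g⁻¹ * s⁻¹ ∈ Z11) : (g : M11) ∈ K := by
  have key : ∀ t : GL11, (t : M11) ∈ K → t ∉ Z11 → g * t * g⁻¹ = t → (g : M11) ∈ K := fun t ht tz e =>
    mem_of_comm hK ht (ns tz) (congrArg Units.val (mul_inv_eq_iff_eq_mul.1 e))
  have l1 : g * s * g⁻¹ * s⁻¹ ∈ SL11 := mul_mem
    ((inferInstance : (Matrix.GeneralLinearGroup.det : GL11 →* Fˣ).ker.Normal).conj_mem s hs1 g)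
    (inv_mem hs1)
  generalize hl : g * s * g⁻¹ * s⁻¹ = l at h l1
  have e1 : g * s * g⁻¹ = l * s := by rw [← hl]; group
  by_cases l0 : l = 1
  · exact key s hs hz (by rw [e1, l0, one_mul])
  by_cases z7 : s ^ 11 ∈ Z11
  · exfalso
    have d7 : 11 ∣ Fintype.card F - 1 := by
      have := Fact.mk (show Nat.Prime 11 by norm_num)
      rw [← orderOf_eq_prime (pow7 h l1) l0]
      exact orderOf_dvd_of_pow_eq_one (powq h)
    have a1 : orderOf s ∣ 121 :=
      orderOf_dvd_of_pow_eq_one (by rw [show 121 = 11 * 11 from rfl, pow_mul, pow7 z7 (pow_mem hs1 11)])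
    have a2 : orderOf s ∣ th (Fintype.card F) := orderOf_dvd_of_pow_eq_one ((det_iff hK hs).1 hs1)
    obtain ⟨k, hk⟩ := d7
    have := q2 (F := F)
    have hq : Fintype.card F = 11 * k + 1 := by omega
    have a3 : orderOf s ∣ 11 := by
      have : th (11 * k + 1) = 121 * (214358881 * k ^ 10 + 214358881 * k ^ 9 + 97435855 * k ^ 8 + 26573415 * k ^ 7 + 4831530 * k ^ 6 + 614922 * k ^ 5 + 55902 * k ^ 4 + 3630 * k ^ 3 + 165 * k ^ 2 + 5 * k ^ 1) + 11 := by unfold th; ring
      rw [hq, this] at a2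
      exact (Nat.dvd_add_right (a1.mul_right _)).1 a2
    have a4 : (s : M11) ^ Fintype.card F = s := by
      rw [← Units.val_pow_eq_pow_val, hq, pow_succ, pow_mul, orderOf_dvd_iff_pow_eq_one.1 a3,
        one_pow, one_mul]
    obtain ⟨c, e⟩ := scalar_of_pow_card hK hs a4
    exact hz (mem_Z e)
  · refine key (s ^ 11) (pow_mem hs 11) z7 ?_
    rw [← conj_pow, e1, (Z_comm h s).mul_pow, pow7 h l1, one_mul]

end SingA

open SingA Cfsg.Agent.Cl.Max Cfsg.Agent.Cl.Mx in
theorem exists_sing {K : Subalgebra F M11} (hK : IsFieldSubalgebra 11 K) : ∃ S, Sing K S := by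
  have hq := q2 (F := F)
  refine ⟨(io K).range ⊓ SL11, hK, fun g => by rw [Subgroup.mem_inf, mem_io hK], card_S hK, ?_,
    card_Z.2, fun s hs v c hv e => ?_,
    fun s hs hz g hg h => ⟨(mem_io hK).2 (cent hK ((mem_io hK).1 hs.1) hs.2 hz h), hg⟩,
    fun s hs hz g h => mem_subalgebraNormalizer_of_maps fun k hk => ?_, ?_⟩
  · have h := crd (subalgebraNormalizer K) SL11
    have h1 : (subalgebraNormalizer K).map (Matrix.GeneralLinearGroup.det : GL11 →* Fˣ) = ⊤ :=
      top_le_iff.1 ((det_top hK).ge.trans (Subgroup.map_mono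
        ((normalizer_eq hK) ▸ Subgroup.le_normalizer)))
    rw [card_N hK, ← th_mul (by omega), ← mul_assoc] at h
    rw [specialLinear, Subgroup.relIndex_ker, h1, Subgroup.card_top, Nat.card_units,
      Nat.card_eq_fintype_card (α := F)] at h
    exact Nat.eq_of_mul_eq_mul_right (by omega) h
  · by_contra h0
    exact IsFieldSubalgebra.mulVec_ne_zero hK (K.sub_mem hs (K.smul_mem (one_mem K) c))
      (sub_ne_zero.2 h0) hv (by rw [sub_mulVec, e, smul_mulVec, one_mulVec, sub_self])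
  · refine mem_of_comm hK h (ns fun hz' => hz ?_) ?_
    · simpa [mul_assoc] using (scalars_normal.conj_mem _ hz' g⁻¹)
    · rw [← cj_coe, ← map_mul, ← map_mul, hK.comm k hk _ hs]
  · have h1 := crd ((io K).range ⊓ SL11 ⊔ Z11) Z11
    have h2 := crd ((io K).range ⊓ SL11) Z11
    rw [inf_eq_right.2 le_sup_right, Subgroup.relIndex_sup_right, card_Z.1] at h1
    rw [inf_assoc, inf_comm SL11, inf_eq_right.2 (inf_le_left.trans (Z_le hK)), card_Z.2,
      card_S hK] at h2
    rw [← h1, ← th_mul (by omega), ← h2]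
    ring

end Cfsg.Agent.S11
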