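import Mathlib
import Cfsg.Agent.S11.Defs
import Cfsg.Agent.S11.Abs
import Cfsg.Agent.S11.NT
import Cfsg.Agent.S11.Fixp

set_option autoImplicit false

namespace Cfsg.Agent.S11

open Matrix Cfsg.Geo Cfsg.Agent.Cl.D5 Module
open scoped MatrixGroups ComplexConjugate commutatorElement

theorem SingB.card_map {A B : Type*} [Group A] [Group B] (f : A →* B) {H : Subgroup A} (h : f.ker ≤ H) :
    Nat.card f.ker * Nat.card (H.map f) = Nat.card H := by
  rw [← Subgroup.relIndex_ker, ← Nat.card_congr (Subgroup.subgroupOfEquivOfLe h).toEquiv]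
  exact Subgroup.card_mul_index _

/-- The image of a configuration in a quotient by a central subgroup. -/
theorem SingB.tid {Γ G : Type*} [Group Γ] [Group G] [Finite Γ] [Finite G] {ρ : Γ →* G}
    (hρ : Function.Surjective ρ) {S N : Subgroup Γ} {d m : ℕ} (hd : Nat.card ρ.ker = d) (hZ : ρ.ker ≤ S)
    (hSN : S ≤ N) (hS : Nat.card S = d * m) (hN : Nat.card N = 11 * (d * m)) (hm : 1 < m)
    (comm : ∀ a ∈ S, ∀ b ∈ S, a * b = b * a)
    (cent : ∀ s ∈ S, s ∉ ρ.ker → ∀ g, g * s * g⁻¹ * s⁻¹ ∈ ρ.ker → g ∈ S)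
    (n1 : ∀ g ∈ N, ∀ s ∈ S, g * s * g⁻¹ ∈ S) (n2 : ∀ s ∈ S, s ∉ ρ.ker → ∀ g, g * s * g⁻¹ ∈ S → g ∈ N) :
    TID (S.map ρ) m ∧ Subgroup.normalizer (S.map ρ : Set G) = N.map ρ := by
  have d0 : 0 < d := hd ▸ Nat.card_pos
  have hc : Nat.card (S.map ρ) = m := Nat.eq_of_mul_eq_mul_left d0 (by rw [← hS, ← SingB.card_map ρ hZ, hd])
  have mem : ∀ x, ρ x ∈ S.map ρ ↔ x ∈ S := fun x => by
    rw [← Subgroup.mem_comap, Subgroup.comap_map_eq_self hZ]
  have e : Subgroup.normalizer (S.map ρ : Set G) = N.map ρ := by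
    refine le_antisymm (fun g hg => ?_) ?_
    · obtain ⟨g, rfl⟩ := hρ g
      obtain ⟨_, ⟨s, hs, rfl⟩, s1⟩ := (Subgroup.nontrivial_iff_exists_ne_one _).1
        (Finite.one_lt_card_iff_nontrivial.1 (hc ▸ hm))
      refine ⟨g, n2 s hs s1 g ((mem _).1 ?_), rfl⟩
      simpa only [map_mul, map_inv] using (Subgroup.mem_normalizer_iff.1 hg _).1 ⟨s, hs, rfl⟩
    · rintro _ ⟨g, hg, rfl⟩
      refine Subgroup.mem_normalizer_fintype ?_
      rintro _ ⟨s, hs, rfl⟩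
      exact ⟨_, n1 g hg s hs, by simp only [map_mul, map_inv]⟩
  refine ⟨⟨?_, hc, ?_, ?_⟩, e⟩
  · rintro _ ⟨a, ha, rfl⟩ _ ⟨b, hb, rfl⟩
    rw [← map_mul, comm a ha b hb, map_mul]
  · rintro _ ⟨s, hs, rfl⟩ s1 g hg
    obtain ⟨g, rfl⟩ := hρ g
    refine (mem _).2 (cent s hs s1 g ?_)
    rw [MonoidHom.mem_ker, map_mul, map_mul, map_mul, map_inv, map_inv, hg]
    group
  · rw [e]
    refine Nat.eq_of_mul_eq_mul_left d0 ?_
    rw [← hd, SingB.card_map ρ (hZ.trans hSN), hN, hd]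
    ring

theorem SingB.num {q d m : ℕ} (hq : 2 ≤ q) (hd : d = Nat.gcd 11 (q - 1)) (h : th q = d * m) :
    400 ≤ m ∧ q ^ 9 + q ^ 8 + q ^ 7 + q ^ 6 + q ^ 5 + q ^ 4 + q ^ 3 + q ^ 2 + q + 2 + 12 ≤ m ∧
      (d = 1 ∨ d = 11 ∧ q % 11 = 1) := by
  have p2 : 2 * q ≤ q ^ 2 := by nlinarith
  have p3 : 2 * q ^ 2 ≤ q ^ 3 := (mul_comm q _).trans (pow_succ q 2).symm ▸ Nat.mul_le_mul_right _ hq
  have p4 : 2 * q ^ 3 ≤ q ^ 4 := (mul_comm q _).trans (pow_succ q 3).symm ▸ Nat.mul_le_mul_right _ hq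
  have p5 : 2 * q ^ 4 ≤ q ^ 5 := (mul_comm q _).trans (pow_succ q 4).symm ▸ Nat.mul_le_mul_right _ hq
  have p6 : 2 * q ^ 5 ≤ q ^ 6 := (mul_comm q _).trans (pow_succ q 5).symm ▸ Nat.mul_le_mul_right _ hq
  have p7 : 2 * q ^ 6 ≤ q ^ 7 := (mul_comm q _).trans (pow_succ q 6).symm ▸ Nat.mul_le_mul_right _ hq
  have p8 : 2 * q ^ 7 ≤ q ^ 8 := (mul_comm q _).trans (pow_succ q 7).symm ▸ Nat.mul_le_mul_right _ hq
  have p9 : 2 * q ^ 8 ≤ q ^ 9 := (mul_comm q _).trans (pow_succ q 8).symm ▸ Nat.mul_le_mul_right _ hq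
  have p10 : 2 * q ^ 9 ≤ q ^ 10 := (mul_comm q _).trans (pow_succ q 9).symm ▸ Nat.mul_le_mul_right _ hq
  rw [th] at h
  rcases (Nat.dvd_prime (by norm_num : Nat.Prime 11)).1 (Nat.gcd_dvd_left 11 (q - 1)) with h1 | h1 <;> rw [h1] at hd
  · subst hd
    omega
  · have h2 : 11 ∣ q - 1 := h1 ▸ Nat.gcd_dvd_right 11 (q - 1)
    have h8 : 12 ≤ q := by omega
    have r10 : 12 * q ^ 9 ≤ q ^ 10 := (mul_comm q _).trans (pow_succ q 9).symm ▸ Nat.mul_le_mul_right _ h8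
    have r9 : 12 * q ^ 8 ≤ q ^ 9 := (mul_comm q _).trans (pow_succ q 8).symm ▸ Nat.mul_le_mul_right _ h8
    have r8 : 12 * q ^ 7 ≤ q ^ 8 := (mul_comm q _).trans (pow_succ q 7).symm ▸ Nat.mul_le_mul_right _ h8
    subst hd
    omega

variable {F : Type*} [Field F] [Fintype F]

local notation "M11" => Matrix (Fin 11) (Fin 11) F
local notation "SL11" => specialLinear (Fin 11) F
local notation "Z11" => scalars (Fin 11) F
local notation "GL11" => GL (Fin 11) F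
local notation "ΩΩ" => Projectivization F (Fin 11 → F)

omit [Fintype F] in
theorem SingB.smul_mk {g : GL11} {v w : Fin 11 → F} (hv : v ≠ 0) (hw : w ≠ 0) :
    g • Projectivization.mk F v hv = Projectivization.mk F w hw ↔ ∃ c : F, (g : M11) *ᵥ v = c • w := by
  rw [Projectivization.smul_mk, Projectivization.mk_eq_mk_iff']
  exact exists_congr fun c => eq_comm

omit [Fintype F] in
theorem SingB.fix {g : GL11} {p : ΩΩ} : g • p = p ↔ ∃ c : F, (g : M11) *ᵥ p.rep = c • p.rep := by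
  rw [← SingB.smul_mk p.rep_nonzero p.rep_nonzero, Projectivization.mk_rep]

theorem SingB.ker {g : GL11} : (∀ p : ΩΩ, g • p = p) ↔ g ∈ Z11 := by
  refine ⟨fun h => by_contra fun k => ?_, fun h p => ?_⟩
  · have h1 := card_fix_le k
    rw [Nat.card_congr (Equiv.subtypeUnivEquiv fun p => SingB.fix.1 (h p)), card_proj, th] at h1
    have := Nat.one_lt_pow (n := 10) (by norm_num) (Fintype.one_lt_card (α := F))
    omega
  · obtain ⟨c, hc⟩ := (mem_scalars_iff g).1 h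
    exact SingB.fix.2 ⟨c, by rw [hc, smul_mulVec, one_mulVec]⟩

omit [Fintype F] in
theorem SingB.ind {a b : Fin 11 → F} (h : Ind2 a b) :
    ∃ (ha : a ≠ 0) (hb : b ≠ 0), Projectivization.mk F a ha ≠ Projectivization.mk F b hb := by
  refine ⟨fun e => one_ne_zero (h 1 0 (by simp [e])).1, fun e => one_ne_zero (h 0 1 (by simp [e])).2, fun e => ?_⟩
  obtain ⟨c, hc⟩ := (Projectivization.mk_eq_mk_iff' F _ _ _ _).1 e
  exact one_ne_zero (h 1 (-c) (by simp [← hc])).1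

theorem Sing.twoT {K : Subalgebra F M11} {S M : Subgroup GL11} (h : Sing K S)
    (h1 : subalgebraNormalizer K ⊓ SL11 ≤ M) (h2 : M ≤ SL11) :
    M ≤ subalgebraNormalizer K ∨ TwoT M := by
  classical
  have hSN : S ≤ subalgebraNormalizer K ⊓ SL11 := fun s hs => by
    have hs' := (h.mem s).1 hs
    have hi := ((h.mem _).1 (S.inv_mem hs)).1
    refine ⟨fun k => ⟨fun hk => K.mul_mem (K.mul_mem hs'.1 hk) hi, fun hk => ?_⟩, hs'.2⟩
    simpa [mul_assoc] using K.mul_mem (K.mul_mem hi hk) hs'.1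
  have hZS : Z11 ⊓ SL11 ≤ S := fun z hz => by
    obtain ⟨c, hc⟩ := (mem_scalars_iff z).1 hz.1
    exact (h.mem z).2 ⟨hc ▸ K.smul_mem K.one_mem _, hz.2⟩
  have : Finite ΩΩ := Nat.finite_of_card_ne_zero (by rw [card_proj, th]; omega)
  let π : M →* Equiv.Perm ΩΩ := MulAction.toPermHom M ΩΩ
  let ρ := π.rangeRestrict
  have act : ∀ (g : M) (p : ΩΩ), ρ g • p = (g : GL11) • p := fun _ _ => rfl
  have hk : ∀ g : M, g ∈ ρ.ker ↔ (g : GL11) ∈ Z11 := fun g => by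
    rw [MonoidHom.ker_rangeRestrict, MonoidHom.mem_ker, Equiv.ext_iff, ← SingB.ker]
    rfl
  have hker : ρ.ker = (Z11 ⊓ SL11).subgroupOf M := Subgroup.ext fun g =>
    (hk g).trans ⟨fun k => ⟨k, h2 g.2⟩, fun k => k.1⟩
  have cs : ∀ {H : Subgroup GL11}, H ≤ M → Nat.card (H.subgroupOf M) = Nat.card H := fun k =>
    Nat.card_congr (Subgroup.subgroupOfEquivOfLe k).toEquiv
  have hd : Nat.card ρ.ker = Nat.gcd 11 (Fintype.card F - 1) := by
    rw [hker, cs (hZS.trans (hSN.trans h1)), h.cardZ]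
  obtain ⟨m, hm⟩ : Nat.gcd 11 (Fintype.card F - 1) ∣ th (Fintype.card F) := by
    rw [← h.cardZ, ← h.card]; exact Subgroup.card_dvd_of_le hZS
  obtain ⟨n1, n2, n3⟩ := SingB.num Fintype.one_lt_card rfl hm
  obtain ⟨tid, e⟩ := SingB.tid π.rangeRestrict_surjective (S := S.subgroupOf M)
    (N := (subalgebraNormalizer K ⊓ SL11).subgroupOf M) (m := m) hd (hker.trans_le (Subgroup.subgroupOf_mono M hZS))
    (Subgroup.subgroupOf_mono M hSN) (by rw [cs (hSN.trans h1), h.card, hm]) (by rw [cs h1, h.cardN, hm]) (by omega)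
    (fun a ha b hb => Subtype.ext (Units.ext (h.fld.comm _ ((h.mem _).1 ha).1 _ ((h.mem _).1 hb).1)))
    (fun s hs s1 g hg => h.cent s hs (mt (hk s).2 s1) g (h2 g.2) ((hk _).1 hg))
    (fun g hg s hs => (h.mem _).2 ⟨(hg.1 _).1 ((h.mem _).1 hs).1, h2 (g * s * g⁻¹).2⟩)
    (fun s hs s1 g hg => ⟨h.norm s ((h.mem _).1 hs).1 (mt (hk s).2 s1) g ((h.mem _).1 hg).1, h2 g.2⟩)
  rcases tid.main (Ω := ΩΩ) (d := Nat.gcd 11 (Fintype.card F - 1)) n1 (by
      rintro _ ⟨s, hs, rfl⟩ s1 p hp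
      obtain ⟨c, hc⟩ := SingB.fix.1 ((act s p).symm.trans hp)
      have h3 : ((s : GL11) : M11) = _ := h.free _ ((h.mem _).1 hs).1 _ c p.rep_nonzero hc
      refine s1 ((hk s).2 (SingB.ker.1 fun p => SingB.fix.2 ⟨c, ?_⟩))
      rw [h3, smul_mulVec, one_mulVec]) (card_proj.trans hm) (by omega) (by omega) (fun g hg => by
      obtain ⟨g, rfl⟩ := π.rangeRestrict_surjective g
      exact (Nat.card_congr (Equiv.subtypeEquivRight fun p => SingB.fix)).trans_le (card_fix_le (mt (hk g).2 hg))) n2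
    with k | k | ⟨a, c, k1, k2, k3, k4, k5⟩
  · refine .inl fun g hg => ?_
    have h3 : ρ ⟨g, hg⟩ ∈ ((subalgebraNormalizer K ⊓ SL11).subgroupOf M).map ρ := by
      rw [← e, Subgroup.normalizer_eq_top_iff.2 k]; trivial
    rw [← Subgroup.mem_comap, Subgroup.comap_map_eq_self
      (hker.trans_le (Subgroup.subgroupOf_mono M (hZS.trans hSN)))] at h3
    exact h3.1
  · refine .inr fun a b a' b' i i' => ?_
    obtain ⟨a0, b0, ne⟩ := SingB.ind i
    obtain ⟨a0', b0', ne'⟩ := SingB.ind i'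
    obtain ⟨g, g1, g2⟩ := k _ _ _ _ ne ne'
    obtain ⟨g, rfl⟩ := π.rangeRestrict_surjective g
    obtain ⟨s, hs⟩ := (SingB.smul_mk a0 a0').1 ((act g _).symm.trans g1)
    obtain ⟨t, ht⟩ := (SingB.smul_mk b0 b0').1 ((act g _).symm.trans g2)
    exact ⟨g, g.2, s, t, hs, ht⟩
  · obtain ⟨d7, q7⟩ := n3.resolve_left (by omega)
    rw [d7] at hm k4
    refine absurd (k5.trans ?_) (nt_deg (FiniteField.isPrimePow_card F) q7 hm.symm k1 k2 k3 k4)
    rw [← Matrix.card_GL_field]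
    exact (Subgroup.card_range_dvd π).trans (Subgroup.card_subgroup_dvd_card M)

end Cfsg.Agent.S11
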